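/-
Abstract root subgroups: the gamma lemma (helper736, section 63).

All members non-isolated; `A, C ∈ S` a rank one pair and `B` a line partner of `A`.  Then there is a member `E ≤ A B`
with `A E = A B`, `⁅E, C⁆ ∈ S` and `⁅A, ⁅E, C⁆⁆ = E`.
-/
import Cfsg.Agent.H733.RootBasics
set_option linter.all false

set_option autoImplicit false
open Cfsg Cfsg.Agent.H731 Cfsg.Agent.H733

namespace Cfsg.Agent.H736

variable {G : Type*} [Group G] {S : Set (Subgroup G)} {A B C D : Subgroup G}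

/-- Elements of a product of two commuting members commute with both. -/
theorem sup_comm_of_members (hS : IsRootSubgroupSet S) (hA : A ∈ S) (hB : B ∈ S)
    (hAB : ∀ a ∈ A, ∀ b ∈ B, a * b = b * a) {x y : G} (hx : x ∈ A ⊔ B) (hy : y ∈ A ⊔ B) : x * y = y * x := by
  have h1 : ∀ z ∈ A, z ∈ Subgroup.centralizer ((A ⊔ B : Subgroup G) : Set G) := fun z hz =>
    mem_centralizer_sup.2 ⟨fun a ha => member_comm hS hA hz ha, fun b hb => hAB z hz b hb⟩
  have h2 : ∀ z ∈ B, z ∈ Subgroup.centralizer ((A ⊔ B : Subgroup G) : Set G) := fun z hz =>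
    mem_centralizer_sup.2 ⟨fun a ha => (hAB a ha z hz).symm, fun b hb => member_comm hS hB hz hb⟩
  have h3 : A ⊔ B ≤ Subgroup.centralizer ((A ⊔ B : Subgroup G) : Set G) := sup_le h1 h2
  exact (Subgroup.mem_centralizer_iff.1 (h3 hx) y hy).symm

/-- If `(A, C)` is a rank one pair and `D` commutes with `A`, `[D, C] ∈ S`, then `[D, C]` does not commute with `A`. -/
theorem commutator_not_comm (hS : IsRootSubgroupSet S) (hA : A ∈ S) (hC : C ∈ S) (hD : D ∈ S)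
    (h : IsRankOnePair A C) (hDC : RootCommutatorCase S D C) :
    ¬ ∀ a ∈ A, ∀ f ∈ ⁅D, C⁆, a * f = f * a := by
  intro hcomm
  obtain ⟨d, hd, hd1⟩ := member_exists_ne_one hS hD
  obtain ⟨c, hc, hc1⟩ := member_exists_ne_one hS hC
  have hz : d * c * d⁻¹ * c⁻¹ ∈ ⁅D, C⁆ := comm_mem hd hc
  by_cases hall : ∀ d ∈ D, ∀ c ∈ C, d * c * d⁻¹ * c⁻¹ = 1
  · apply rcc_not_commute hS hDC
    rw [commutator_eq_bot_iff_forall]
    intro d hd c hc
    have := hall d hd c hc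
    rw [mul_inv_eq_one, mul_inv_eq_iff_eq_mul] at this
    exact this
  · push Not at hall
    obtain ⟨d, hd, c, hc, hne⟩ := hall
    have hz : d * c * d⁻¹ * c⁻¹ ∈ ⁅D, C⁆ := comm_mem hd hc
    have hc1 : c ≠ 1 := by
      rintro rfl
      apply hne; simp
    refine central_translate hS hA (RankOnePair_symm h) (z := d * c * d⁻¹ * c⁻¹) ?_ hne hc hc1
      (hS.conj_mem C hC d) ?_
    · rw [mem_centralizer_sup]
      exact ⟨fun x hx => rcc_comm_right hDC hz hx, fun x hx => (hcomm x hx _ hz).symm⟩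
    · have : d * c * d⁻¹ * c⁻¹ * c = d * c * d⁻¹ := by simp [mul_assoc]
      rw [this]
      exact conj_mem_conjBy hc d

/-- The core of the gamma lemma. -/
theorem gamma_core (hS : IsRootSubgroupSet S) (hF : ∀ A ∈ S, ∃ A' ∈ S, IsRankOnePair A A')
    (hA : A ∈ S) (hB : B ∈ S) (hC : C ∈ S) (hD : D ∈ S)
    (h : IsRankOnePair A C) (hDC : RootCommutatorCase S D C)
    (hAD : ∀ a ∈ A, ∀ d ∈ D, a * d = d * a) (hBD : ∀ b ∈ B, ∀ d ∈ D, b * d = d * b)
    (hAB : ∀ a ∈ A, ∀ b ∈ B, a * b = b * a)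
    {a d : G} (ha : a ∈ A) (ha1 : a ≠ 1) (hd : d ∈ D) (hd1 : d ≠ 1) (hb : a * d ∈ B) :
    RootCommutatorCase S A ⁅D, C⁆ ∧ ⁅A, ⁅D, C⁆⁆ = D ∧ ∃ f ∈ ⁅D, C⁆, f ≠ 1 ∧ B = conjBy A f := by
  have hFS : ⁅D, C⁆ ∈ S := hDC.1
  have hnc := commutator_not_comm hS hA hC hD h hDC
  have hCD : ¬ IsRankOnePair C D := fun h1 => rankOne_not_rcc hS hC (RankOnePair_symm h1) hDC
  have hBC := mul_mem_rankOne hS hC hD hB h hAD hCD ha ha1 hd hb
  obtain ⟨c, hc, hc1, hac⟩ := h.cond_left a⁻¹ (A.inv_mem ha) (inv_ne_one.2 ha1)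
  rw [inv_inv] at hac
  have hadne : a * d ≠ 1 := by
    intro h1
    have h2 : a = d⁻¹ := eq_inv_of_mul_eq_one_left h1
    have h3 : A = D := eq_of_mem_mem hS hA hC h hD ha ha1 (by rw [h2]; exact D.inv_mem hd)
    subst h3
    exact rankOne_not_rcc hS hC h hDC
  obtain ⟨c', hc', hc1', hbc⟩ := hBC.cond_left (a * d)⁻¹ (B.inv_mem hb) (inv_ne_one.2 hadne)
  rw [inv_inv] at hbc
  -- the element `f`
  set f := d * c⁻¹ * d⁻¹ * c with hfdef
  have hf : f ∈ ⁅D, C⁆ := by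
    have := comm_mem hd (C.inv_mem hc)
    rwa [inv_inv] at this
  have hdA : conjBy A d⁻¹ = A := conjBy_of_commute fun x hx => (hAD x hx _ (D.inv_mem hd)).symm
  have h2 : conjBy C (a * d) = conjBy (conjBy A c⁻¹) f := by
    rw [hAD a ha d hd, ← conjBy_conjBy, ← hac, conjBy_conjBy, conjBy_conjBy, hfdef]
    have h3 : d * c⁻¹ * d⁻¹ * c * c⁻¹ = d * c⁻¹ * d⁻¹ := by simp [mul_assoc]
    rw [h3, ← conjBy_conjBy A (d * c⁻¹) d⁻¹, hdA]
  have hfc : ∀ x ∈ C, f * x = x * f := fun x hx => rcc_comm_right hDC hf hx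
  have hfd : ∀ x ∈ D, f * x = x * f := fun x hx => rcc_comm_left hDC hf hx
  have h3 : B = conjBy (conjBy A f) (c' * c⁻¹) := by
    rw [← conjBy_inj (g := c'⁻¹), hbc, h2, conjBy_conjBy, conjBy_conjBy, conjBy_conjBy, hfc _ (C.inv_mem hc)]
    simp
  -- `c' = c`
  have h4 : c' * c⁻¹ = 1 := by
    by_contra hne
    apply hnc
    have hcc : c' * c⁻¹ ∈ C := C.mul_mem hc' (C.inv_mem hc)
    -- `D` commutes with `A^f` and with `(A^f)^{c'c⁻¹}`
    have e1 : ∀ x ∈ conjBy A f, ∀ y ∈ D, x * y = y * x := by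
      rintro _ ⟨x, hx, rfl⟩ y hy
      show f * x * f⁻¹ * y = y * (f * x * f⁻¹)
      have g1 := hfd y hy
      have g2 : f⁻¹ * y = y * f⁻¹ := by
        rw [inv_mul_eq_iff_eq_mul, ← mul_assoc, g1, mul_assoc, mul_inv_cancel, mul_one]
      calc f * x * f⁻¹ * y = f * x * (f⁻¹ * y) := by simp only [mul_assoc]
        _ = f * (x * y) * f⁻¹ := by rw [g2]; simp only [mul_assoc]
        _ = f * y * x * f⁻¹ := by rw [hAD x hx y hy]; simp only [mul_assoc]
        _ = y * (f * x * f⁻¹) := by rw [g1]; simp only [mul_assoc]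
    have e2 : ∀ x ∈ conjBy A f, ∀ y ∈ D, x * ((c' * c⁻¹)⁻¹ * y * (c' * c⁻¹)) = ((c' * c⁻¹)⁻¹ * y * (c' * c⁻¹)) * x := by
      intro x hx y hy
      have g1 : (c' * c⁻¹) * x * (c' * c⁻¹)⁻¹ ∈ B := by
        rw [h3]; exact conj_mem_conjBy hx _
      have g2 := hBD _ g1 y hy
      have g3 : (c' * c⁻¹)⁻¹ * (c' * c⁻¹ * x * (c' * c⁻¹)⁻¹ * y) * (c' * c⁻¹) =
          (c' * c⁻¹)⁻¹ * (y * (c' * c⁻¹ * x * (c' * c⁻¹)⁻¹)) * (c' * c⁻¹) := by rw [g2]
      simpa [mul_assoc] using g3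
    have e3 : ∀ y ∈ ⁅D, C⁆, ∀ x ∈ conjBy A f, x * y = y * x := by
      have hle : ⁅D, C⁆ ≤ Subgroup.centralizer ((conjBy A f : Subgroup G) : Set G) := by
        rw [← hDC.2.2.2 (c' * c⁻¹)⁻¹ (C.inv_mem hcc) (inv_ne_one.2 hne), Subgroup.closure_le]
        rintro _ ⟨y, hy, rfl⟩
        show y * (c' * c⁻¹)⁻¹ * y⁻¹ * ((c' * c⁻¹)⁻¹)⁻¹ ∈ Subgroup.centralizer ((conjBy A f : Subgroup G) : Set G)
        rw [Subgroup.mem_centralizer_iff]
        intro x hx
        have g1 := e1 x hx y hy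
        have g2 := e2 x hx y⁻¹ (D.inv_mem hy)
        have g3 : y * (c' * c⁻¹)⁻¹ * y⁻¹ * ((c' * c⁻¹)⁻¹)⁻¹ = y * ((c' * c⁻¹)⁻¹ * y⁻¹ * (c' * c⁻¹)) := by
          simp [mul_assoc]
        rw [g3]
        calc x * (y * ((c' * c⁻¹)⁻¹ * y⁻¹ * (c' * c⁻¹))) = x * y * ((c' * c⁻¹)⁻¹ * y⁻¹ * (c' * c⁻¹)) := by
              simp only [mul_assoc]
          _ = y * (x * ((c' * c⁻¹)⁻¹ * y⁻¹ * (c' * c⁻¹))) := by rw [g1]; simp only [mul_assoc]
          _ = y * ((c' * c⁻¹)⁻¹ * y⁻¹ * (c' * c⁻¹)) * x := by rw [g2]; simp only [mul_assoc]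
      intro y hy x hx
      exact Subgroup.mem_centralizer_iff.1 (hle hy) x hx
    intro x hx y hy
    have g1 := e3 y hy (f * x * f⁻¹) (conj_mem_conjBy hx f)
    have g2 := member_comm hS hFS hf hy
    have g3 : f⁻¹ * y = y * f⁻¹ := by
      rw [inv_mul_eq_iff_eq_mul, ← mul_assoc, g2, mul_assoc, mul_inv_cancel, mul_one]
    have g4 : f * (x * y) * f⁻¹ = f * (y * x) * f⁻¹ := by
      calc f * (x * y) * f⁻¹ = f * x * f⁻¹ * y := by rw [mul_assoc (f * x), g3]; simp only [mul_assoc]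
        _ = y * (f * x * f⁻¹) := g1
        _ = y * f * x * f⁻¹ := by simp only [mul_assoc]
        _ = f * (y * x) * f⁻¹ := by rw [← g2]; simp only [mul_assoc]
    exact mul_left_cancel (mul_right_cancel g4)
  have h5 : B = conjBy A f := by rw [h3, h4, conjBy_one]
  have hAm : conjBy A f ≠ A := by
    intro h6
    rw [h5, h6] at hb
    have h7 : d ∈ A := by
      have := A.mul_mem (A.inv_mem ha) hb
      simpa [mul_assoc] using this
    have h8 : A = D := eq_of_mem_mem hS hA hC h hD h7 hd1 hd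
    subst h8
    exact rankOne_not_rcc hS hC h hDC
  have hf1 : f ≠ 1 := by
    intro h6
    rw [h6, conjBy_one] at hAm
    exact hAm rfl
  -- the pair `(A, F)`
  have hAF : RootCommutatorCase S A ⁅D, C⁆ := by
    rcases hS.pair A hA _ hFS with h6 | h6 | h6
    · exact absurd (commutator_eq_bot_iff_forall.1 h6) hnc
    · exfalso
      have h7 : conjBy A f ∈ unipotentSubgroups A ⁅D, C⁆ :=
        conjBy_mem_unipotentSubgroups (left_mem_unipotentSubgroups _ _) (Subgroup.mem_sup_right hf)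
      have h8 := rankOne_pair_of_mem h6 (left_mem_unipotentSubgroups _ _) h7 (Ne.symm hAm)
      apply rankOne_not_commute h8
      rw [commutator_eq_bot_iff_forall, ← h5]
      exact hAB
    · exact h6
  refine ⟨hAF, ?_, f, hf, hf1, h5⟩
  -- `[A, F] = D`
  have h6 : d ∈ A ⊔ ⁅A, ⁅D, C⁆⁆ := by
    have h7 : a * d ∈ A ⊔ ⁅A, ⁅D, C⁆⁆ := by
      rw [h5] at hb
      exact conjBy_le_sup_commutator hf hb
    have := Subgroup.mul_mem _ (Subgroup.inv_mem _ (Subgroup.mem_sup_left (T := ⁅A, ⁅D, C⁆⁆) ha)) h7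
    simpa [mul_assoc] using this
  obtain ⟨-, h7, -⟩ := rcc_partition hS hA (hF A hA) hAF
  obtain ⟨E, hE, hdE⟩ := h7 d h6 hd1
  have hES := hE.1
  rw [rcc_membersIn hS hA (hF A hA) hAF] at hE
  obtain ⟨D', hD', hDD'⟩ := hF D hD
  have h8 : D = E := eq_of_mem_mem hS hD hD' hDD' hES hd hd1 hdE
  rcases hE with ⟨x, hx, hxE⟩ | hE
  · exfalso
    apply hnc
    have hxE' : conjBy A x = D := by rw [h8]; exact hxE
    intro y hy z hz
    have g1 : x * y * x⁻¹ ∈ D := by rw [← hxE']; exact conj_mem_conjBy hy x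
    have g2 := rcc_comm_left hDC hz g1
    have g3 := member_comm hS hFS hx hz
    have g4 : x⁻¹ * z = z * x⁻¹ := by
      rw [inv_mul_eq_iff_eq_mul, ← mul_assoc, g3, mul_assoc, mul_inv_cancel, mul_one]
    have g5 : x * (y * z) * x⁻¹ = x * (z * y) * x⁻¹ := by
      calc x * (y * z) * x⁻¹ = x * y * (z * x⁻¹) := by simp only [mul_assoc]
        _ = x * y * x⁻¹ * z := by rw [← g4]; simp only [mul_assoc]
        _ = z * (x * y * x⁻¹) := g2.symm
        _ = z * x * y * x⁻¹ := by simp only [mul_assoc]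
        _ = x * (z * y) * x⁻¹ := by rw [← g3]; simp only [mul_assoc]
    exact mul_left_cancel (mul_right_cancel g5)
  · rw [Set.mem_singleton_iff] at hE
    exact (h8.trans hE).symm

/-- **Gamma lemma**: `(A, C)` a rank one pair of members and `B` a line partner of `A` (all members non-isolated).  Then
there is a member `E` with `A E = A B`, `[E, C] ∈ S` and `[A, [E, C]] = E`. -/
theorem gamma (hS : IsRootSubgroupSet S) (hF : ∀ A ∈ S, ∃ A' ∈ S, IsRankOnePair A A')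
    (hA : A ∈ S) (hC : C ∈ S) (h : IsRankOnePair A C) (hB : B ∈ linePartners S A) :
    ∃ E ∈ S, RootCommutatorCase S E C ∧ RootCommutatorCase S A ⁅E, C⁆ ∧ ⁅A, ⁅E, C⁆⁆ = E ∧ A ⊔ E = A ⊔ B := by
  obtain ⟨⟨hBS, hne, hAB⟩, -, hcov, -⟩ := hB
  rw [commutator_eq_bot_iff_forall] at hAB
  have hsup : ∀ x ∈ A ⊔ B, ∀ y ∈ A ⊔ B, x * y = y * x := fun x hx y hy =>
    sup_comm_of_members hS hA hBS hAB hx hy
  have hprod : ∀ a ∈ A, a ≠ 1 → ∀ b ∈ B, a * b ≠ 1 := by
    intro a ha ha1 b hb h3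
    apply hne
    have h4 : a = b⁻¹ := eq_inv_of_mul_eq_one_left h3
    exact (eq_of_mem_mem hS hA hC h hBS ha ha1 (by rw [h4]; exact B.inv_mem hb)).symm
  -- case 1
  have hcase1 : ∀ D ∈ S, ∀ d ∈ D, d ≠ 1 → d ∈ A ⊔ B → (∀ x ∈ D, ∀ y ∈ C, x * y = y * x) →
      ∀ a ∈ A, a ≠ 1 → ∀ E ∈ S, d * a ∉ E := by
    intro D hD d hd hd1 hdAB hDC a ha ha1 E hE
    refine central_translate hS hC h (z := d) ?_ hd1 ha ha1 hE
    rw [mem_centralizer_sup]
    exact ⟨fun x hx => hsup d hdAB x (Subgroup.mem_sup_left hx), fun x hx => hDC d hd x hx⟩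
  rcases hS.pair B hBS C hC with h1 | h1 | h1
  · exfalso
    rw [commutator_eq_bot_iff_forall] at h1
    obtain ⟨a, ha, ha1⟩ := member_exists_ne_one hS hA
    obtain ⟨b, hb, hb1⟩ := member_exists_ne_one hS hBS
    obtain ⟨D, ⟨hD, -⟩, hab⟩ := hcov (a * b) (Subgroup.mul_mem_sup ha hb) (hprod a ha ha1 b hb)
    rw [hAB a ha b hb] at hab
    exact hcase1 B hBS b hb hb1 (Subgroup.mem_sup_right hb) h1 a ha ha1 D hD hab
  · -- case 3
    obtain ⟨a, ha, ha1⟩ := member_exists_ne_one hS hA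
    obtain ⟨c, hc, hc1, hac⟩ := h.cond_left a ha ha1
    obtain ⟨b, hb, hb1, hbc⟩ := h1.cond_right c hc hc1
    have hd1 : b * a⁻¹ ≠ 1 := by
      intro h2
      have h3 := hprod a⁻¹ (A.inv_mem ha) (inv_ne_one.2 ha1) b hb
      apply h3
      rw [hAB _ (A.inv_mem ha) b hb]
      exact h2
    have hdAB : b * a⁻¹ ∈ A ⊔ B :=
      Subgroup.mul_mem _ (Subgroup.mem_sup_right hb) (Subgroup.mem_sup_left (A.inv_mem ha))
    obtain ⟨D, ⟨hD, hDle⟩, hdD⟩ := hcov (b * a⁻¹) hdAB hd1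
    -- `C` commutes with its conjugate under `b a⁻¹`
    have hCC : ⁅conjBy C (b * a⁻¹), C⁆ = ⊥ := by
      have e1 : ⁅conjBy A c⁻¹, conjBy B c⁻¹⁆ = ⊥ := by
        rw [commutator_conjBy_eq_bot_iff, commutator_eq_bot_iff_forall]
        exact hAB
      rw [hac, ← hbc] at e1
      rw [← commutator_conjBy_eq_bot_iff (g := b⁻¹), conjBy_conjBy]
      simpa [mul_assoc] using e1
    have hDC : RootCommutatorCase S D C := by
      rcases hS.pair D hD C hC with h2 | h2 | h2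
      · exfalso
        rw [commutator_eq_bot_iff_forall] at h2
        refine hcase1 D hD _ hdD hd1 hdAB h2 a ha ha1 B hBS ?_
        simpa [mul_assoc] using hb
      · exfalso
        have h3 : conjBy C (b * a⁻¹) ∈ unipotentSubgroups D C :=
          conjBy_mem_unipotentSubgroups (right_mem_unipotentSubgroups h2) (Subgroup.mem_sup_left hdD)
        have h4 : conjBy C (b * a⁻¹) ≠ C := fun h5 => hd1 (rankOne_eq_one h2 hdD h5)
        exact rankOne_not_commute (rankOne_pair_of_mem h2 h3 (right_mem_unipotentSubgroups h2) h4) hCC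
      · exact h2
    have hAD : ∀ x ∈ A, ∀ y ∈ D, x * y = y * x := fun x hx y hy =>
      hsup x (Subgroup.mem_sup_left hx) y (hDle hy)
    have hBD : ∀ x ∈ B, ∀ y ∈ D, x * y = y * x := fun x hx y hy =>
      hsup x (Subgroup.mem_sup_right hx) y (hDle hy)
    have had : a * (b * a⁻¹) ∈ B := by
      have : a * (b * a⁻¹) = b := by
        rw [← mul_assoc, hAB a ha b hb]; simp [mul_assoc]
      rw [this]; exact hb
    obtain ⟨e1, e2, f, hf, hf1, e3⟩ := gamma_core hS hF hA hBS hC hD h hDC hAD hBD hAB ha ha1 hdD hd1 had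
    refine ⟨D, hD, hDC, e1, e2, ?_⟩
    have e4 : A ⊔ conjBy A f = A ⊔ ⁅A, ⁅D, C⁆⁆ := by
      apply le_antisymm
      · exact sup_le le_sup_left (conjBy_le_sup_commutator hf)
      · refine sup_le le_sup_left ?_
        rw [← e1.2.2.2 f hf hf1, Subgroup.closure_le]
        rintro _ ⟨x, hx, rfl⟩
        show x * f * x⁻¹ * f⁻¹ ∈ A ⊔ conjBy A f
        have h1 : x * f * x⁻¹ * f⁻¹ = x * (f * x⁻¹ * f⁻¹) := by simp [mul_assoc]
        rw [h1]
        exact Subgroup.mul_mem_sup hx (conj_mem_conjBy (A.inv_mem hx) f)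
    rw [e3, e4, e2]
  · -- case 2
    obtain ⟨a, ha, ha1⟩ := member_exists_ne_one hS hA
    obtain ⟨b, hb, hb1⟩ := member_exists_ne_one hS hBS
    obtain ⟨D, ⟨hD, hDle⟩, hab⟩ := hcov (a * b) (Subgroup.mul_mem_sup ha hb) (hprod a ha ha1 b hb)
    have hAD : ∀ x ∈ A, ∀ y ∈ D, x * y = y * x := fun x hx y hy =>
      hsup x (Subgroup.mem_sup_left hx) y (hDle hy)
    have hDB : ∀ x ∈ D, ∀ y ∈ B, x * y = y * x := fun x hx y hy =>
      hsup x (hDle hx) y (Subgroup.mem_sup_right hy)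
    obtain ⟨e1, e2, -⟩ := gamma_core hS hF hA hD hC hBS h h1 hAB hDB hAD ha ha1 hb hb1 hab
    exact ⟨B, hBS, h1, e1, e2, rfl⟩

end Cfsg.Agent.H736
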